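import Cfsg.Agent.Lib.Small9.Lin
import Cfsg.Agent.Lib.OrthE.Basic
import Cfsg.Agent.Lib.Orth.Lagrangian
import Cfsg.Agent.Lib.Core.Cores

/-!
# The linear algebra of a conjugate `t` of `z` in a large extraspecial group `Q`

`E t` is the image of `Q ⊓ Q_t` in `Q / z`, `R t` the image of `C_{Q_t}(z)` in `C(z) / Q`.
-/

set_option autoImplicit false

namespace CfsgLib.LXR

open QuadraticMap Module CfsgLib.ExtraTwo CfsgLib.OrthE CfsgLib.Small9

abbrev VV (m : ℕ) : Type := Fin m → ZMod 2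
abbrev SS (m : ℕ) : Type := Submodule (ZMod 2) (VV m)

variable {m : ℕ} {q : QuadraticForm (ZMod 2) (VV m)}

local notation "β" => polar q
local notation "dim" => finrank (ZMod 2)

theorem b_fix {g : O q} {c : VV m} (hc : g.1 c = c) (v : VV m) : β c (g.1 v + v) = 0 := by
  have := polar_fix_sub hc v
  rwa [sub_zmod2] at this

theorem b_adj {g : O q} (h : g * g = 1) (v w : VV m) : β (g.1 v + v) w = β v (g.1 w + w) := by
  rw [polar_add_left, polar_add_right, O_polar_left, inv_eq_of_mul_eq_one_right h]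

theorem q_mov (g : O q) (v : VV m) : q (g.1 v + v) = β v (g.1 v + v) := by
  have := q_add (q := q) (g.1 v) v
  rw [O_map] at this
  rw [this, polar_add_right, b_self, polar_comm]; grind

theorem card_le_of {S : SS m} (l : List (VV m)) (h : ∀ v ∈ S, v ∈ l) : 2 ^ dim S ≤ l.length := by
  classical
  rw [← card_eq]
  calc Nat.card S = (S : Set (VV m)).ncard := rfl
    _ ≤ (l.toFinset : Set (VV m)).ncard := Set.ncard_le_ncard (fun v hv => by simpa using h v hv)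
    _ ≤ _ := by rw [Set.ncard_coe_finset]; exact l.toFinset_card_le

theorem exists_not_mem {S : SS m} {k : ℕ} (hk : k ≤ dim S) (l : List (VV m)) (h : l.length < 2 ^ k) :
    ∃ v ∈ S, v ∉ l := by
  by_contra hc
  push Not at hc
  exact absurd ((Nat.pow_le_pow_right two_pos hk).trans (card_le_of l hc)) (by omega)

theorem mem_sup1 {S : SS m} {t v : VV m} : v ∈ S ⊔ Submodule.span (ZMod 2) {t} ↔ v ∈ S ∨ v + t ∈ S := by
  constructor
  · intro h
    obtain ⟨s, hs, w, hw, rfl⟩ := Submodule.mem_sup.1 h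
    obtain ⟨k, rfl⟩ := Submodule.mem_span_singleton.1 hw
    rcases zmod2_cases k with rfl | rfl <;> simp [hs, add_assoc, add_self_zmod2]
  · rintro (h | h)
    · exact Submodule.mem_sup_left h
    · exact Submodule.mem_sup.2 ⟨_, h, t, Submodule.mem_span_singleton_self t, by
        rw [add_assoc, add_self_zmod2, add_zero]⟩

/-- the hyperplane `t^⊥` -/
def pv (q : QuadraticForm (ZMod 2) (VV m)) (t : VV m) : SS m := LinearMap.ker (polarBilin q t)

theorem mem_pv {t v : VV m} : v ∈ pv q t ↔ β t v = 0 := Iff.rfl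

theorem dim_inf_pv (S : SS m) (t : VV m) : dim S ≤ dim (S ⊓ pv q t : SS m) + 1 :=
  Orth.finrank_le_inf_add_one S t

theorem eich_eq {t u : VV m} (ht : q t = 0) (hu : β t u = 0) (v : VV m) :
    (eich q t u).1 v = v + β v u • t + β v t • u + (q u * β v t) • t := by
  rw [eich_apply ht hu, sub_zmod2, sub_zmod2]

theorem eq_eich [NeZero m] {g : O q} {t v₀ : VV m} (ht : q t = 0) (hg : g.1 t = t)
    (h : ∀ v, β t v = 0 → g.1 v + v = 0 ∨ g.1 v + v = t) (h0 : β t v₀ = 1) :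
    g = eich q t (g.1 v₀ + v₀) := by
  have h1 := b_fix hg v₀
  refine O_ext fun v => ?_
  have h2 : ∀ v, β t v = 0 → g.1 v = (eich q t (g.1 v₀ + v₀)).1 v := fun v hv => by
    have h3 := O_polar g v v₀
    rw [eich_eq ht h1, polar_comm q v t, hv, polar_add_right]
    have h4 : β t (g.1 v₀) = 1 := by rw [polar_add_right, h0] at h1; grind
    rcases (show g.1 v = v ∨ g.1 v = v + t by have := h v hv; grind) with e | e <;> rw [e] at h3 ⊢
    · rw [h3, add_self_zmod2]; simp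
    · rw [polar_add_left, h4] at h3
      rw [show β v (g.1 v₀) + β v v₀ = 1 by grind]; simp
  have h3 : g.1 v₀ = (eich q t (g.1 v₀ + v₀)).1 v₀ := by
    rw [eich_eq ht h1, polar_comm q v₀ t, h0, q_mov, mul_one, one_smul]; grind
  rcases zmod2_cases (β t v) with e | e
  · exact h2 v e
  · have := h2 (v + v₀) (by rw [polar_add_right, e, h0]; rfl)
    rw [map_add, map_add, ← h3] at this
    exact add_right_cancel this

section nd
variable (nd : Nondeg q)
include nd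

theorem dim_pp (S : SS m) : dim (pp q S) + dim S = m := by
  have := S.finrank_le
  rw [pp_eq, LinearMap.BilinForm.finrank_orthogonal ((nondeg_iff q).1 nd)]
  simp only [finrank_fintype_fun_eq_card, Fintype.card_fin] at this ⊢
  omega

theorem pp_pp (S : SS m) : pp q (pp q S) = S := by
  rw [pp_eq, pp_eq]
  exact LinearMap.BilinForm.orthogonal_orthogonal ((nondeg_iff q).1 nd) (Orth.polarBilin_isRefl q) S

theorem exists_b {v : VV m} (h : v ≠ 0) : ∃ w, β v w = 1 :=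
  let ⟨w, hw⟩ := nd.exists_eq h 1; ⟨w, by rwa [polar_comm]⟩

theorem exists_sep {S : SS m} {x : VV m} (hx : x ∉ S) : ∃ w, (∀ s ∈ S, β s w = 0) ∧ β x w = 1 :=
  Orth.exists_perp_polar_eq ((nondeg_iff q).1 nd) hx 1

theorem eq_of_perp {t x : VV m} (h : ∀ v, β t v = 0 → β x v = 0) : x = 0 ∨ x = t := by
  by_contra hc
  obtain ⟨w, h1, h2⟩ := exists_sep nd (S := ⊥ ⊔ Submodule.span _ {t}) (x := x) (by
    simpa [mem_sup1, add_eq_zero_zmod2, -bot_le, -bot_sup_eq] using hc)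
  rw [h w (h1 t (mem_sup1.2 (.inr (add_self_zmod2 t))))] at h2
  exact zero_ne_one h2

end nd

def Iv (K : Subgroup (O q)) (S : SS m) : Prop := ∀ g ∈ K, ∀ v ∈ S, g.1 v ∈ S

theorem Iv.pp {K : Subgroup (O q)} {S : SS m} (h : Iv K S) : Iv K (pp q S) := fun g hg v hv s hs => by
  rw [polar_comm, O_polar_left, polar_comm]; exact hv _ (h _ (inv_mem hg) s hs)

theorem Iv.inf {K : Subgroup (O q)} {S S' : SS m} (h : Iv K S) (h' : Iv K S') : Iv K (S ⊓ S') :=
  fun g hg v hv => ⟨h g hg v hv.1, h' g hg v hv.2⟩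

theorem Iv.mov {K : Subgroup (O q)} {S : SS m} (h : Iv K S) {g : O q} (hg : g ∈ K) {v : VV m}
    (hv : v ∈ S) : g.1 v + v ∈ S := add_mem (h g hg v hv) hv

/-- the pointwise stabiliser -/
def fx (K : Subgroup (O q)) (S : SS m) : Subgroup (O q) where
  carrier := {g | g ∈ K ∧ ∀ v ∈ S, g.1 v = v}
  mul_mem' ha hb := ⟨mul_mem ha.1 hb.1, fun v hv => by rw [O_mul_apply, hb.2 v hv, ha.2 v hv]⟩
  one_mem' := ⟨one_mem _, fun _ _ => rfl⟩
  inv_mem' ha := ⟨inv_mem ha.1, fun v hv => O_inv_apply_eq _ (ha.2 v hv)⟩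

structure LK (q : QuadraticForm (ZMod 2) (VV m)) (K : Subgroup (O q)) : Prop where
  nd : Nondeg q
  o2 : ∀ N ≤ K, (∀ g ∈ K, ∀ x ∈ N, g * x * g⁻¹ ∈ N) → IsPGroup 2 N → N = ⊥
  nofix : ∀ v, (∀ g ∈ K, g.1 v = v) → v = 0

namespace LK
variable {K : Subgroup (O q)} (h : LK q K) {S : SS m}
include h

theorem fx_o2 (hS : Iv K S) {N : Subgroup (O q)} (hN : N ≤ fx K S)
    (hn : ∀ g ∈ fx K S, ∀ x ∈ N, g * x * g⁻¹ ∈ N) (h2 : IsPGroup 2 N) : N = ⊥ := by
  have e : ∀ g ∈ K, (fx K S).map (MulAut.conj g).toMonoidHom = fx K S := fun g hg => by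
    have k : ∀ g ∈ K, ∀ x ∈ fx K S, g⁻¹ * x * g ∈ fx K S := fun g hg x hx =>
      ⟨mul_mem (mul_mem (inv_mem hg) hx.1) hg, fun v hv => by
        rw [O_mul_apply, O_mul_apply, hx.2 _ (hS g hg v hv), O_inv_apply_apply]⟩
    ext x
    rw [mem_map_conj]
    exact ⟨fun hx => by simpa [mul_assoc] using k _ (inv_mem hg) _ hx, k g hg x⟩
  have h1 := h.o2 ((Cfsg.pCore 2 (fx K S)).map (fx K S).subtype)
    ((Subgroup.map_subtype_le _).trans fun _ hx => hx.1) (fun g hg x hx => by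
      have := Core.map_conj_map_pCore (p := 2) (fx K S) g
      rw [e g hg] at this
      exact this.le ⟨x, hx, rfl⟩) ((Core.isPGroup_pCore 2 _).map _)
  have : (N.subgroupOf (fx K S)).Normal := ⟨fun x hx g => hn g g.2 _ hx⟩
  exact eq_bot_iff.2 fun x hx => h1.le ⟨⟨x, hN hx⟩, Core.le_pCore (hN := this) h2.comap_subtype hx, rfl⟩

/-- an element that is trivial on `S^⊥`, `S` isotropic and invariant, is trivial -/
theorem eq_one (hS : Iv K S) (hi : S ≤ pp q S) {g : O q} (hg : g ∈ K) (e : ∀ v ∈ pp q S, g.1 v = v) :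
    g = 1 := by
  refine (h.fx_o2 hS.pp le_rfl (fun _ a _ b => mul_mem (mul_mem a b) (inv_mem a))
    (fun x => ⟨1, Subtype.ext (O_ext fun v => ?_)⟩)).le (⟨hg, e⟩ : g ∈ fx K (pp q S))
  have := x.2.2 _ (hi ((pp_pp h.nd S).le fun s hs => b_fix (x.2.2 s hs) v))
  rw [map_add, add_comm] at this
  exact add_left_cancel this

theorem exists_two (hS : Iv K S) {v : VV m} (hv : v ∈ S) (h0 : v ≠ 0) : ∃ w ∈ S, w ≠ 0 ∧ w ≠ v := by
  by_contra! hn
  exact h0 (h.nofix v fun g hg => hn _ (hS g hg v hv) (O_apply_ne_zero g h0))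

/-- an invariant isotropic subspace contains an invariant totally singular one -/
theorem exists_ts (hS : Iv K S) (hi : S ≤ pp q S) (h0 : S ≠ ⊥) :
    ∃ S' ≤ S, Iv K S' ∧ S' ≠ ⊥ ∧ ∀ v ∈ S', q v = 0 := by
  let S' : SS m := { carrier := {v | v ∈ S ∧ q v = 0}
                     add_mem' := fun {a b} ha hb =>
                       ⟨add_mem ha.1 hb.1, by rw [q_add, ha.2, hb.2, hi hb.1 a ha.1]; rfl⟩
                     zero_mem' := ⟨zero_mem _, map_zero _⟩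
                     smul_mem' := fun c v hv => ⟨S.smul_mem c hv.1, by rw [Q_smul, hv.2, mul_zero]⟩ }
  refine ⟨S', fun _ hv => hv.1, fun g hg v hv => ⟨hS g hg v hv.1, (O_map g v).trans hv.2⟩, fun e => ?_,
    fun _ hv => hv.2⟩
  obtain ⟨v, hv, v0⟩ := (Submodule.ne_bot_iff S).1 h0
  obtain ⟨w, hw, w0, e1⟩ := h.exists_two hS hv v0
  have k : ∀ x ∈ S, x ≠ 0 → q x = 1 := fun x hx x0 =>
    zmod2_ne_zero.1 fun e2 => x0 (e.le (⟨hx, e2⟩ : x ∈ S'))
  have := k _ (add_mem hv hw) fun e => e1 (add_eq_zero_zmod2.1 e).symm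
  rw [q_add, k v hv v0, k w hw w0, hi hw v hv] at this
  exact absurd this (by decide)

end LK

structure LT (q : QuadraticForm (ZMod 2) (VV m)) (K : Subgroup (O q)) (T : Set (VV m))
    (E : VV m → SS m) (R : VV m → Subgroup (O q)) : Prop extends LK q K where
  ne : ∀ t ∈ T, t ≠ 0
  inv : ∀ g ∈ K, ∀ t ∈ T, g.1 t ∈ T
  tr : ∀ t ∈ T, ∀ t' ∈ T, ∃ g ∈ K, g.1 t = t'
  tE : ∀ t ∈ T, t ∈ E t
  sing : ∀ t ∈ T, ∀ e ∈ E t, q e = 0
  le : ∀ t ∈ T, R t ≤ K
  sq : ∀ t ∈ T, ∀ r ∈ R t, r * r = 1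
  mov : ∀ t ∈ T, ∀ r ∈ R t, ∀ v, polar q t v = 0 → r.1 v + v ∈ E t
  inj : ∀ t ∈ T, ∀ r ∈ R t, ∀ v, polar q t v = 1 → r.1 v + v ∈ E t → r = 1
  surj : ∀ t ∈ T, ∀ v w, polar q t v = 1 → polar q t w = 0 → ∃ r ∈ R t, r.1 v + v + w ∈ E t
  eqE : ∀ g ∈ K, ∀ t ∈ T, ∀ e ∈ E t, g.1 e ∈ E (g.1 t)
  eqR : ∀ g ∈ K, ∀ t ∈ T, ∀ r ∈ R t, g * r * g⁻¹ ∈ R (g.1 t)

namespace LT
variable [NeZero m] {K : Subgroup (O q)} {T : Set (VV m)} {E : VV m → SS m} {R : VV m → Subgroup (O q)}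
  (h : LT q K T E R) {t t' e v w : VV m} {r r' : O q} {S : SS m}
include h

omit [NeZero m] in
theorem bE (ht : t ∈ T) (he : e ∈ E t) (hv : v ∈ E t) : β e v = 0 :=
  Orth.polar_eq_zero_of_singular (h.sing t ht) he hv

omit [NeZero m] in
theorem movE (ht : t ∈ T) (hr : r ∈ R t) (he : ∀ x ∈ E t, β e x = 0) : r.1 e + e = 0 ∨ r.1 e + e = t :=
  eq_of_perp h.nd fun v hv => by rw [b_adj (h.sq t ht r hr)]; exact he _ (h.mov t ht r hr v hv)

theorem fix (ht : t ∈ T) (hr : r ∈ R t) : r.1 t = t := by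
  have := h.movE ht hr fun x hx => h.bE ht (h.tE t ht) hx
  have := O_apply_ne_zero r (h.ne t ht)
  grind

omit [NeZero m] in
theorem comm (ht : t ∈ T) (hr : r ∈ R t) (hr' : r' ∈ R t) (v : VV m) : r.1 (r'.1 v) = r'.1 (r.1 v) := by
  rw [← O_mul_apply, ← inv_eq_of_mul_eq_one_right (h.sq t ht _ (mul_mem hr hr')), mul_inv_rev,
    inv_eq_of_mul_eq_one_right (h.sq t ht _ hr), inv_eq_of_mul_eq_one_right (h.sq t ht _ hr'), O_mul_apply]

omit [NeZero m] in
theorem inv2 (ht : t ∈ T) (hr : r ∈ R t) (v : VV m) : r.1 (r.1 v) = v := by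
  rw [← O_mul_apply, h.sq t ht r hr]; rfl

theorem add (ht : t ∈ T) (hr : r ∈ R t) (hr' : r' ∈ R t) (v : VV m) :
    (r * r').1 v + v + ((r.1 v + v) + (r'.1 v + v)) ∈ E t := by
  have := h.mov t ht r hr _ (b_fix (h.fix ht hr') v)
  rw [map_add] at this
  rw [O_mul_apply]; convert this using 1; grind

theorem uniq (ht : t ∈ T) (hr : r ∈ R t) (hr' : r' ∈ R t) (hv : β t v = 1)
    (h1 : r.1 v + v + w ∈ E t) (h2 : r'.1 v + v + w ∈ E t) : r = r' := by
  have := h.inj t ht _ (mul_mem hr hr') v hv (by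
    convert add_mem (add_mem (h.add ht hr hr' v) h1) h2 using 1; grind)
  rw [← inv_eq_of_mul_eq_one_right this, inv_eq_of_mul_eq_one_right (h.sq t ht r hr)]

theorem shift (ht : t ∈ T) (hr : r ∈ R t) (hv : β t v = 1) {v' : VV m} (hv' : β t v' = 1)
    (h1 : r.1 v + v + w ∈ E t) : r.1 v' + v' + w ∈ E t := by
  have := h.mov t ht r hr (v + v') (by rw [polar_add_right, hv, hv']; rfl)
  rw [map_add] at this
  convert add_mem h1 this using 1; grind

/-- `[e, R t] = ⟨t⟩` for `e ∈ (E t)^⊥ ∖ ⟨t⟩` -/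
theorem exists_mov (ht : t ∈ T) (he : ∀ x ∈ E t, β e x = 0) (h0 : e ≠ 0) (h1 : e ≠ t) :
    ∃ r ∈ R t, r.1 e = e + t := by
  obtain ⟨w, w1, w2⟩ : ∃ w, β t w = 0 ∧ β e w ≠ 0 := by
    by_contra! hn
    exact (eq_of_perp h.nd hn).elim h0 h1
  obtain ⟨v, hv⟩ := exists_b h.nd (h.ne t ht)
  obtain ⟨r, hr, h2⟩ := h.surj t ht v w hv w1
  have h3 := he _ h2
  rw [polar_add_right, ← b_adj (h.sq t ht r hr)] at h3
  refine ⟨r, hr, ?_⟩
  rcases h.movE ht hr he with e | e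
  · rw [e, polar_zero_left, zero_add] at h3; exact absurd h3 w2
  · grind

/-- an invariant subspace outside `t^⊥` supplements `E t` -/
theorem sup_top (ht : t ∈ T) (hS : Iv K S) (hv : v ∈ S) (h1 : β t v = 1) (x : VV m) :
    ∃ s ∈ S, s + x ∈ E t := by
  rcases zmod2_cases (β t x) with e | e
  · obtain ⟨r, hr, h2⟩ := h.surj t ht v x h1 e
    exact ⟨_, hS.mov (h.le t ht hr) hv, h2⟩
  · obtain ⟨r, hr, h2⟩ := h.surj t ht v (v + x) h1 (by rw [polar_add_right, h1, e]; rfl)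
    exact ⟨_, add_mem (hS.mov (h.le t ht hr) hv) hv, by rwa [add_assoc]⟩

theorem eq_zero (ht : t ∈ T) (hS : Iv K S) (hv : v ∈ S) (h1 : β t v = 1) (hw : w ∈ pp q S)
    (he : ∀ x ∈ E t, β w x = 0) : w = 0 := h.nd w fun x => by
  obtain ⟨s, hs, e⟩ := h.sup_top ht hS hv h1 x
  simpa [polar_add_right, polar_comm q w s, hw s hs] using he _ e

omit [NeZero m] in
theorem iv_span : Iv K (Submodule.span (ZMod 2) T) := fun g hg v hv => by
  induction hv using Submodule.span_induction with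
  | mem x hx => exact Submodule.subset_span (h.inv g hg x hx)
  | zero => simp
  | add x y _ _ a b => rw [map_add]; exact add_mem a b
  | smul c x _ a => rw [map_smul]; exact Submodule.smul_mem _ c a

omit [NeZero m] in
theorem perp_all (hS : Iv K S) (ht : t ∈ T) (e : ∀ v ∈ S, β t v = 0) (ht' : t' ∈ T) : ∀ v ∈ S, β t' v = 0 := by
  obtain ⟨g, hg, rfl⟩ := h.tr t ht t' ht'
  exact fun v hv => by rw [O_polar_left]; exact e _ (hS _ (inv_mem hg) v hv)

omit [NeZero m] in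
theorem dimE (ht : t ∈ T) : 2 * dim (E t) ≤ m := by
  have := dim_pp h.nd (E t)
  have : dim (E t) ≤ dim (pp q (E t)) := Submodule.finrank_mono fun v hv s hs => h.bE ht hs hv
  omega

/-- two invariant subspaces outside `t^⊥` that meet `E t` and each other trivially -/
theorem two (hm : 5 ≤ m) (ht : t ∈ T) {S' : SS m} (hS : Iv K S) (hS' : Iv K S') (hv : v ∈ S)
    (h1 : β t v = 1) (hw : w ∈ S') (h2 : β t w = 1) (d1 : ∀ x ∈ S, x ∈ E t → x = 0)
    (d2 : ∀ x ∈ S', x ∈ E t → x = 0) (d3 : ∀ x ∈ S, x ∈ S' → x = 0) : False := by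
  have k : ∀ {S : SS m} {v}, Iv K S → v ∈ S → β t v = 1 → m ≤ 2 * dim S := fun {S v} a b c => by
    have e : S ⊔ E t = ⊤ := eq_top_iff.2 fun x _ => by
      obtain ⟨s, hs, e⟩ := h.sup_top ht a b c x
      exact Submodule.mem_sup.2 ⟨s, hs, _, e, by grind⟩
    have := Submodule.finrank_add_le_finrank_add_finrank S (E t)
    have := h.dimE ht
    rw [e, finrank_top, finrank_fintype_fun_eq_card, Fintype.card_fin] at *
    omega
  have k1 := k hS hv h1
  have k2 := k hS' hw h2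
  have f1 : ∀ {S : SS m}, Iv K S → (∀ x ∈ S, x ∈ E t → x = 0) → ∀ r ∈ R t, ∀ x ∈ S ⊓ pv q t, r.1 x = x :=
    fun a b r hr x hx => add_eq_zero_zmod2.1 (b _ (a.mov (h.le t ht hr) hx.1) (h.mov t ht r hr x hx.2))
  have e1 := Submodule.finrank_sup_add_finrank_inf_eq (S ⊓ pv q t) (S' ⊓ pv q t)
  set U := (S ⊓ pv q t) ⊔ (S' ⊓ pv q t)
  rw [show (S ⊓ pv q t) ⊓ (S' ⊓ pv q t) = ⊥ from eq_bot_iff.2 fun x hx => d3 x hx.1.1 hx.2.1,
    finrank_bot] at e1
  have e2 := dim_inf_pv (q := q) S t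
  have e3 := dim_inf_pv (q := q) S' t
  have e4 := dim_pp h.nd U
  have e5 : S ⊓ pv q t ≤ pp q U := fun x hx => by
    obtain ⟨r, hr, e⟩ := h.surj t ht v x h1 hx.2
    obtain rfl := add_eq_zero_zmod2.1 (d1 _ (add_mem (hS.mov (h.le t ht hr) hv) hx.1) e)
    intro u hu
    obtain ⟨a, ha, b, hb, rfl⟩ := Submodule.mem_sup.1 hu
    exact b_fix (by rw [map_add, f1 hS d1 r hr a ha, f1 hS' d2 r hr b hb]) v
  have e6 := dim_lt e5 (v := t) (fun u hu => by
    rw [polar_comm]; exact (sup_le inf_le_right inf_le_right : U ≤ pv q t) hu)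
    fun hx => h.ne t ht (d1 t hx.1 (h.tE t ht))
  omega

end LT

end CfsgLib.LXR
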