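import Cfsg.Agent.Lib.LXR.Lin

/-! A reducible `K` leaves a subspace of `T^⊥` invariant -/

set_option autoImplicit false

namespace CfsgLib.LXR.LT

open QuadraticMap Module CfsgLib.ExtraTwo CfsgLib.OrthE CfsgLib.Small9

variable {m : ℕ} {q : QuadraticForm (ZMod 2) (VV m)} [NeZero m] {K : Subgroup (O q)} {T : Set (VV m)}
  {E : VV m → SS m} {R : VV m → Subgroup (O q)} (h : LT q K T E R) {t t' p p' : VV m} {W : SS m}
include h

local notation "β" => polar q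
local notation "dim" => finrank (ZMod 2)

omit [NeZero m] in
theorem exists_T (ht : t ∈ T) (hn : ¬ ∀ v ∈ Submodule.span (ZMod 2) T, β t v = 0) (hp : p ∈ T) :
    ∃ p' ∈ T, β p p' = 1 := by
  by_contra! hc
  exact hn (h.perp_all h.iv_span hp (fun v hv => (Submodule.span_le.2 fun x hx =>
    (zmod2_cases _).resolve_right (hc x hx) : _ ≤ pv q p) hv) ht)

theorem exists_perp (hm : 5 ≤ m) (ht : t ∈ T) (hW : Iv K W) (h0 : W ≠ ⊥) (h1 : W ≠ ⊤) :
    ∃ Y, Iv K Y ∧ Y ≠ ⊥ ∧ ∀ p ∈ T, ∀ y ∈ Y, β p y = 0 := by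
  by_contra hn
  have hv : ∀ Y, Iv K Y → Y ≠ ⊥ → ∀ p ∈ T, ∃ v ∈ Y, β p v = 1 := fun Y a b p hp => by
    by_contra! hc
    exact hn ⟨Y, a, b, fun _ => h.perp_all a hp fun v hv => (zmod2_cases _).resolve_right (hc v hv)⟩
  have d : ∀ X, Iv K X → pp q X ≠ ⊥ → ∀ p ∈ T, ∀ x ∈ X, (∀ e ∈ E p, β x e = 0) → x = 0 :=
    fun X a b p hp x hx e => let ⟨v, c, d⟩ := hv _ a.pp b p hp
      h.eq_zero hp a.pp c d ((pp_pp h.nd X).ge hx) e
  have d' : ∀ X, Iv K X → pp q X ≠ ⊥ → ∀ p ∈ T, ∀ x ∈ X, x ∈ E p → x = 0 :=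
    fun X a b p hp x hx e => d X a b p hp x hx fun _ => h.bE hp e
  have h2 : pp q W ≠ ⊥ := fun e => h1 (eq_top_iff.2 fun v _ => (pp_pp h.nd W).le fun s hs => by
    rw [e.le hs, polar_zero_left])
  by_cases h3 : W ⊓ pp q W = ⊥
  · obtain ⟨v, a, b⟩ := hv W hW h0 t ht
    obtain ⟨w, c, e⟩ := hv _ hW.pp h2 t ht
    exact h.two hm ht hW hW.pp a b c e (d' W hW h2 t ht)
      (d' _ hW.pp (by rwa [pp_pp h.nd]) t ht) fun x a b => h3.le ⟨a, b⟩
  obtain ⟨S, -, hS, s0, hq⟩ := h.exists_ts (hW.inf hW.pp) (fun v hv s hs => hv.2 s hs.1) h3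
  have hi : S ≤ pp q S := fun v hv s hs => Orth.polar_eq_zero_of_singular hq hs hv
  have s1 : pp q S ≠ ⊥ := fun e => s0 (eq_bot_iff.2 (hi.trans e.le))
  have s2 : pp q S = S := le_antisymm (fun x hx => by
    obtain ⟨v, a, b⟩ := hv S hS s0 t ht
    obtain ⟨s, hs, e⟩ := h.sup_top ht hS a b x
    exact add_eq_zero_zmod2.1 (d' _ hS.pp (by rwa [pp_pp h.nd]) t ht _ (add_mem (hi hs) hx) e) ▸ hs) hi
  have s3 : ∀ p, 2 ≤ dim (S ⊓ pv q p : SS m) := fun p => by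
    have := dim_pp h.nd S
    have := dim_inf_pv (q := q) S p
    rw [s2] at *; omega
  have f1 : ∀ p ∈ T, ∀ r ∈ R p, ∀ x ∈ S, β p x = 0 → r.1 x = x := fun p hp r hr x hx e =>
    add_eq_zero_zmod2.1 (d' S hS s1 p hp _ (hS.mov (h.le p hp hr) hx) (h.mov p hp r hr x e))
  have f2 : ∀ p ∈ T, ∀ v ∈ S, β p v = 1 → ∀ y ∈ S, β p y = 0 → ∃ r ∈ R p, r.1 v + v = y :=
    fun p hp v a b y c e => let ⟨r, hr, k⟩ := h.surj p hp v y b e
      ⟨r, hr, add_eq_zero_zmod2.1 (d' S hS s1 p hp _ (add_mem (hS.mov (h.le p hp hr) a) c) k)⟩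
  have f3 : ∀ p ∈ T, ∀ r ∈ R p, ∀ v, β p v = 1 → ∀ e ∈ E p, r.1 e + e = β e (r.1 v + v) • p :=
    fun p hp r hr v a e he => by
      rw [← b_adj (h.sq p hp r hr)]
      rcases h.movE hp hr fun x => h.bE hp he with k | k <;> simp [k, a]
  have un : ∀ p ∈ T, ∀ p' ∈ T, p + p' ∈ S → p = p' := fun p hp p' hp' e => by
    obtain ⟨v, a, b⟩ := hv S hS s0 p hp
    have c : ∀ x ∈ S, β p' x = β p x := fun x hx => by
      have := hi hx _ e
      rw [polar_add_left] at this; grind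
    obtain ⟨y, y1, y2⟩ := exists_not_mem (s3 p) [0, p + p'] (by simp)
    simp only [List.mem_cons, List.not_mem_nil, or_false, not_or] at y2
    obtain ⟨r, hr, e1⟩ := f2 p hp v a b y y1.1 y1.2
    obtain ⟨r', hr', e2⟩ := f2 p' hp' v a ((c v a).trans b) y y1.1 ((c y y1.1).trans y1.2)
    have k : ∀ {p r}, p ∈ T → r ∈ R p → β p v = 1 → r.1 v + v = y → ∀ x ∈ S, r.1 x = x + β p x • y :=
      fun {p r} a1 a2 a3 a4 x hx => by
        rcases zmod2_cases (β p x) with e | e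
        · simp [e, f1 p a1 r a2 x hx e]
        · have := f1 p a1 r a2 _ (add_mem hx a) (by rw [polar_add_right, e, a3]; rfl)
          rw [map_add] at this
          rw [e, one_smul]; grind
    obtain rfl : r = r' := mul_inv_eq_one.1 (h.eq_one hS hi (mul_mem (h.le p hp hr) (inv_mem (h.le p' hp' hr')))
      fun x hx => by
        rw [s2] at hx
        have hx' := hS _ (inv_mem (h.le p' hp' hr')) x hx
        rw [O_mul_apply, k hp hr b e1 _ hx', ← c _ hx', ← k hp' hr' ((c v a).trans b) e2 _ hx',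
          O_apply_inv_apply])
    obtain ⟨x, hx, e3⟩ : ∃ x ∈ E p, β y x ≠ 0 := by
      by_contra! hc
      exact y2.1 (d S hS s1 p hp y y1.1 hc)
    obtain ⟨s, hs, e4⟩ := h.sup_top hp' hS a ((c v a).trans b) x
    have e5 := f3 p hp r hr v b x hx
    have e6 := f3 p' hp' r hr' v ((c v a).trans b) _ e4
    rw [e1, polar_add_left, hi y1.1 s hs, zero_add, map_add, k hp hr b e1 s hs] at e6
    rw [e1, polar_comm, zmod2_ne_zero.1 e3, one_smul] at e5
    rw [polar_comm q x, zmod2_ne_zero.1 e3, one_smul] at e6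
    rcases zmod2_cases (β p s) with e | e <;> simp only [e, zero_smul, one_smul] at e6 <;> grind
  obtain ⟨v, a, b⟩ := hv _ h.iv_span (fun e => h.ne t ht (e.le (Submodule.subset_span ht))) t ht
  obtain ⟨p, hp, c⟩ := h.exists_T ht (fun e => by simp [e v a] at b) ht
  obtain ⟨v, a, b⟩ := hv S hS s0 t ht
  obtain ⟨s, hs, e⟩ := h.sup_top ht hS a b p
  have e1 := h.bE ht (h.tE t ht) e
  rw [polar_add_right, c] at e1
  obtain ⟨y, hy, y0⟩ := exists_ne_zero (S := S ⊓ pv q t ⊓ pv q (s + p))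
    (by have := s3 t; have := dim_inf_pv (q := q) (S ⊓ pv q t) (s + p); omega)
  obtain ⟨r, hr, e2⟩ := f2 t ht s hs (by grind) y hy.1.1 hy.1.2
  have e3 := f3 t ht r hr s (by grind) _ e
  rw [e2, mem_pv.1 hy.2, zero_smul, map_add] at e3
  have e4 : r.1 p + p = y := by grind
  exact y0 (by rw [← e4, un _ (h.inv r (h.le t ht hr) p hp) p hp (e4 ▸ hy.1.1), add_self_zmod2])

end CfsgLib.LXR.LT
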