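import Cfsg.Agent.Lib.LXR.LinA

/-! If a non-zero invariant subspace is perpendicular to `T`, then `T` spans a totally singular subspace -/

set_option autoImplicit false

namespace CfsgLib.LXR

open QuadraticMap Module CfsgLib.ExtraTwo CfsgLib.OrthE CfsgLib.Small9

variable {m : ℕ} {q : QuadraticForm (ZMod 2) (VV m)} [NeZero m] {K : Subgroup (O q)} {T : Set (VV m)}
  {E : VV m → SS m} {R : VV m → Subgroup (O q)} {t t' p p' y y' u u' w : VV m} {Y : SS m}

local notation "β" => polar q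
local notation "dim" => finrank (ZMod 2)

theorem exists_sing {S : SS m} (h : 3 ≤ dim S) : ∃ v ∈ S, v ≠ 0 ∧ q v = 0 := by
  obtain ⟨a, ha, h1⟩ := exists_not_mem h [0] (by simp)
  obtain ⟨b, hb, h2⟩ := exists_not_mem h [0, a] (by simp)
  obtain ⟨c, hc, h3⟩ := exists_not_mem h [0, a, b, a + b] (by simp)
  simp only [List.mem_cons, List.not_mem_nil, or_false, not_or] at h1 h2 h3
  by_contra hn
  push Not at hn
  have k : ∀ v ∈ S, v ≠ 0 → q v = 1 := fun v hv h => zmod2_ne_zero.1 (hn v hv h)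
  have e1 := k _ ha h1; have e2 := k _ hb h2.1; have e3 := k _ hc h3.1
  have e4 := k _ (S.add_mem ha hb) (by grind)
  have e5 := k _ (S.add_mem ha hc) (by grind)
  have e6 := k _ (S.add_mem hb hc) (by grind)
  have e7 := k _ (S.add_mem (S.add_mem ha hb) hc) (by grind)
  simp only [q_add, polar_add_left] at e4 e5 e6 e7
  grind

omit [NeZero m] in
theorem le_card_of {S : SS m} (l : List (VV m)) (hl : l.Nodup) (h : ∀ v ∈ l, v ∈ S) : l.length ≤ 2 ^ dim S := by
  classical
  rw [← card_eq, ← List.toFinset_card_of_nodup hl, ← Set.ncard_coe_finset]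
  exact Set.ncard_le_ncard (s := l.toFinset) (t := (S : Set (VV m))) fun v hv => h v (by simpa using hv)

structure LB (q : QuadraticForm (ZMod 2) (VV m)) (K : Subgroup (O q)) (T : Set (VV m))
    (E : VV m → SS m) (R : VV m → Subgroup (O q)) (Y : SS m) : Prop extends LT q K T E R where
  iv : Iv K Y
  perp : ∀ p ∈ T, ∀ y ∈ Y, polar q p y = 0
  np : ∀ p ∈ T, ∃ p' ∈ T, polar q p p' = 1

/-- the element of `R p` that belongs to `y` is the Siegel transformation `eich q p u` -/
structure Ph (q : QuadraticForm (ZMod 2) (VV m)) (T : Set (VV m)) (E : VV m → SS m)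
    (R : VV m → Subgroup (O q)) (Y : SS m) (p y u : VV m) : Prop where
  hp : p ∈ T
  hy : y ∈ Y
  b : polar q p u = 0
  e : u + y ∈ E p
  r : eich q p u ∈ R p

namespace LB
variable (h : LB q K T E R Y)
include h

local notation "Φ" => Ph q T E R Y

omit [NeZero m] in
theorem qp (hp : p ∈ T) : q p = 0 := h.sing p hp p (h.tE p hp)

theorem y0 (hp : p ∈ T) (hy : y ∈ Y) (e : ∀ x ∈ E p, β y x = 0) : y = 0 :=
  let ⟨_, a, b⟩ := h.np p hp
  h.eq_zero hp h.iv_span (Submodule.subset_span a) b (fun _ hs => polar_comm q y _ ▸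
    (Submodule.span_le.2 fun x hx => (polar_comm q y x).trans (h.perp x hx y hy) : _ ≤ pv q y) hs) e

theorem cen (hp : p ∈ T) {r : O q} (hr : r ∈ R p) (hy : y ∈ Y) : r.1 y = y :=
  add_eq_zero_zmod2.1 (h.y0 hp (h.iv.mov (h.le p hp hr) hy) fun _ =>
    h.bE hp (h.mov p hp r hr y (h.perp p hp y hy)))

theorem addp (a : Φ p y u) : Φ p y (u + p) :=
  ⟨a.hp, a.hy, by rw [polar_add_right, a.b, b_self, add_zero],
    by rw [add_right_comm]; exact add_mem a.e (h.tE p a.hp),
    by have := eich_add_smul_self (1 : ZMod 2) (h.qp a.hp) a.b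
       rw [one_smul] at this; rw [this]; exact a.r⟩

omit [NeZero m] in
theorem add (a : Φ p y u) (b : Φ p y' u') : Φ p (y + y') (u + u') :=
  ⟨a.hp, add_mem a.hy b.hy, by rw [polar_add_right, a.b, b.b, add_zero],
    by rw [add_add_add_comm]; exact add_mem a.e b.e, eich_mul (h.qp a.hp) a.b b.b ▸ mul_mem a.r b.r⟩

theorem ex (hp : p ∈ T) (hy : y ∈ Y) (hb : β p p' = 1) : ∃ u, Φ p y u ∧ β u p' = 0 := by
  obtain ⟨r, hr, e⟩ := h.surj p hp p' y hb (h.perp p hp y hy)
  have a : Φ p y (r.1 p' + p') := ⟨hp, hy, b_fix (h.fix hp hr) _, e, eq_eich (h.qp hp) (h.fix hp hr)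
    (fun w hw => by
      obtain ⟨r', hr', e'⟩ := h.surj p hp p' w hb hw
      have e1 := h.movE hp hr fun _ => h.bE hp e'
      have e2 := h.movE hp hr' fun _ => h.bE hp e
      simp only [map_add, h.cen hp hr' hy, h.comm hp hr hr'] at e1 e2
      grind) hb ▸ hr⟩
  rcases zmod2_cases (β (r.1 p' + p') p') with e | e
  exacts [⟨_, a, e⟩, ⟨_, h.addp a, by rw [polar_add_left, e, hb]; rfl⟩]

theorem bY (a : Φ p y u) (hy : y' ∈ Y) : β u y' = 0 := by
  have := eich_eq (h.qp a.hp) a.b y'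
  rw [h.cen a.hp a.r hy, polar_comm q y' p, h.perp p a.hp y' hy, polar_comm] at this
  rcases zmod2_cases (β u y') with e | e
  · exact e
  · exact absurd (by simpa [e] using this) (h.ne p a.hp)

theorem qu (a : Φ p y u) : q u = q y := by
  have := h.sing p a.hp _ a.e
  rw [q_add, h.bY a a.hy] at this; grind

theorem bb (a : Φ p y u) (b : Φ p y' u') : β u u' = β y y' := by
  have := h.bE a.hp a.e b.e
  simp only [polar_add_left, polar_add_right, h.bY a b.hy, polar_comm q y u', h.bY b a.hy] at this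
  grind

theorem nz (a : Φ p y u) (e : u ∈ E p) : y = 0 :=
  h.y0 a.hp a.hy fun _ => h.bE a.hp ((add_mem_cancel_left e).1 a.e)

theorem nz' (a : Φ p y u) (h0 : y ≠ 0) : u ≠ 0 ∧ u ≠ p :=
  ⟨fun e => h0 (h.nz a (e ▸ zero_mem _)), fun e => h0 (h.nz a (e ▸ h.tE p a.hp))⟩

theorem un (a : Φ p y u) (b : Φ p y u') : u' = u ∨ u' = u + p := by
  obtain ⟨v, -, hv⟩ := h.np p a.hp
  have k : ∀ {u}, Φ p y u → (eich q p u).1 v + v = u + (β v u + q u) • p ∧
      (eich q p u).1 v + v + y ∈ E p := fun {u} a => by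
    have : (eich q p u).1 v + v = u + (β v u + q u) • p := by
      rw [eich_eq (h.qp a.hp) a.b, polar_comm q v p, hv, add_smul]; simp; grind
    exact ⟨this, by
      rw [this, add_right_comm]; exact add_mem a.e (Submodule.smul_mem _ _ (h.tE p a.hp))⟩
  have e1 := (k a).1
  rw [h.uniq a.hp a.r b.r hv (k a).2 (k b).2, (k b).1] at e1
  rcases zmod2_cases (β v u + q u) with e | e <;> rcases zmod2_cases (β v u' + q u') with e' | e' <;>
    simp only [e, e', zero_smul, one_smul] at e1 <;> grind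

omit [NeZero m] in
theorem tp (a : Φ p y u) {g : O q} (hg : g ∈ K) (e : g.1 y = y) : Φ (g.1 p) y (g.1 u) :=
  ⟨h.inv g hg p a.hp, a.hy, (O_polar g p u).trans a.b, by
    simpa [e] using h.eqE g hg p a.hp _ a.e, conj_eich g p u ▸ h.eqR g hg p a.hp _ a.r⟩

theorem tp' (a : Φ p y u) (b : Φ p' y' u') : Φ ((eich q p' u').1 p) y ((eich q p' u').1 u) :=
  h.tp a (h.le p' b.hp b.r) (h.cen b.hp b.r a.hy)

theorem f1 (a : Φ p y u) (b : Φ p' y' w) (h1 : β p p' = 0) (h2 : p ≠ p') (h3 : β p w = 0) (h4 : y' ≠ 0)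
    (h5 : w ≠ p) (h6 : w ≠ p + p') : β u p' = 0 ∧ β u w = 0 := by
  have c := h.tp' a b
  rw [eich_apply_of_orth h1 h3, eich_eq (h.qp b.hp) b.b] at c
  have := h.un a c
  have := h.nz' b h4
  have := h.ne p' b.hp
  rcases zmod2_cases (β u p') with e | e <;> rcases zmod2_cases (β u w) with e' | e' <;>
    rcases zmod2_cases (q w) with e'' | e'' <;> simp only [e, e', e'', zero_smul, one_smul, mul_zero,
      mul_one] at * <;> grind

theorem mv (a : Φ p y u) (h1 : β p p' = 1) (h2 : β u p' = 0) : (eich q p u).1 p' = p' + u + q y • p := by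
  rw [eich_eq (h.qp a.hp) a.b, polar_comm q p' u, polar_comm q p' p, h1, h2, h.qu a]; simp

theorem mv' (a : Φ p y u) (h1 : β w p = 0) : (eich q p u).1 w = w + β w u • p :=
  eich_apply_of_orth_left (h.qp a.hp) a.b h1

theorem not_ts (ht : t ∈ T) (h0 : Y ≠ ⊥) (hq : ∀ y ∈ Y, q y = 0) : False := by
  obtain ⟨y₁, a1, a2⟩ := (Submodule.ne_bot_iff Y).1 h0
  obtain ⟨y₂, a3, a4, a5⟩ := h.exists_two h.iv a1 a2
  have a6 : y₁ + y₂ ≠ 0 := by grind
  have hi : ∀ y ∈ Y, ∀ y' ∈ Y, β y y' = 0 := fun _ a _ b => Orth.polar_eq_zero_of_singular hq a b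
  have g1 : ∀ {p p' y u}, Φ p y u → p' ∈ T → β p p' = 0 → p ≠ p' → β u p' = 0 :=
    fun {p p' y u} a b c d => by
    by_contra hn
    have k : ∀ {y' w}, Φ p' y' w → y' ≠ 0 → β p w = 0 → w = p ∨ w = p + p' := fun e f g => by
      by_contra! hc
      exact hn (h.f1 a e c d g f hc.1 hc.2).1
    obtain ⟨v, -, hv⟩ := h.np p' b
    obtain ⟨w₁, b1, -⟩ := h.ex b a1 hv
    obtain ⟨w₂, b2, -⟩ := h.ex b a3 hv
    have c1 := k b1 a2; have c2 := k b2 a4; have c3 := k (h.add b1 b2) a6
    have c4 := h.nz' (h.add b1 b2) a6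
    have c5 := (h.bb b1 b2).trans (hi _ a1 _ a3)
    have c6 := b1.b; have c7 := b2.b
    have c8 : β (w₁ + w₂) w₁ = 0 := by rw [polar_add_left, b_self, polar_comm, c5]; rfl
    have c9 := polar_comm q w₁ w₂
    rw [polar_add_right] at c3
    rcases zmod2_cases (β p w₁) with e | e <;> rcases zmod2_cases (β p w₂) with e' | e'
    · grind
    · rcases c1 e with f | f <;> rw [f] at c5
      · grind
      · rw [polar_add_left] at c5; grind
    · rw [c9] at c5
      rcases c2 e' with f | f <;> rw [f] at c5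
      · grind
      · rw [polar_add_left] at c5; grind
    · rcases c3 (by rw [e, e']; rfl) with f | f <;> rw [f] at c8
      · grind
      · rw [polar_add_left] at c8; grind
  have g2 : ∀ {p p' y y' u u'}, Φ p y u → Φ p' y' u' → β p p' = 1 → β u p' = 0 → β u' p = 0 →
      β u' u = 0 := fun {p p' y y' u u'} a b c d e => by
    by_cases f : u = 0
    · simp [f]
    have f1 := h.inv _ (h.le p a.hp a.r) p' b.hp
    rw [h.mv a c d, hq y a.hy, zero_smul, add_zero] at f1
    have := g1 b f1 (by rw [polar_add_right, b_self, polar_comm, d, add_zero]) (by grind)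
    rwa [polar_add_right, polar_comm, b.b, zero_add] at this
  have g3 : ∀ {p p' y' u'}, p ∈ T → Φ p' y' u' → β p p' = 1 → β u' p = 0 → ∀ x ∈ E p, β u' x = 0 :=
    fun {p p' y' u'} hp b c e x hx => by
    by_contra hn
    rw [← ne_eq, zmod2_ne_zero, polar_comm] at hn
    obtain ⟨y, hy, y0, y1⟩ : ∃ y ∈ Y, y ≠ 0 ∧ β x y = 0 := by
      by_contra! hc
      have o1 := zmod2_ne_zero.1 (hc _ a1 a2); have o2 := zmod2_ne_zero.1 (hc _ a3 a4)
      have := hc _ (add_mem a1 a3) a6
      rw [polar_add_right, o1, o2] at this; exact this rfl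
    obtain ⟨u, a, d⟩ := h.ex hp hy c
    have f := g2 a b c d e
    have b' := h.tp' b a
    rw [h.mv a c d, h.mv' a e, f, hq y hy, zero_smul, add_zero, add_zero] at b'
    have f1 := h.eqE _ (h.le _ b'.hp b'.r) _ (h.inv _ (h.le _ b.hp b.r) p hp) _
      (h.eqE _ (h.le _ b.hp b.r) p hp x hx)
    have f2 := h.bE hp hx a.e
    have f3 := h.qu b
    rw [polar_add_right, y1, add_zero] at f2
    rw [hq y' b.hy] at f3
    simp only [eich_eq (h.qp b.hp) b.b, eich_eq (h.qp b'.hp) b'.b, f3, polar_add_left, polar_add_right,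
      polar_smul_left, b_self, polar_comm q p u', polar_comm q u' p', polar_comm q p' u, e, c, d, f, f2, hn,
      b.b, a.b, zero_mul, zero_smul, one_smul, add_zero, smul_zero] at f1
    refine y0 (h.nz a ?_)
    rw [show p + u' + u' = p by grind] at f1
    convert add_mem f1 hx using 1; grind
  obtain ⟨t', ht', c⟩ := h.np t ht
  obtain ⟨u, a, d⟩ := h.ex ht a1 c
  have c' := (polar_comm q t' t).trans c
  obtain ⟨r, hr, e⟩ := h.exists_mov ht' (g3 ht' a c' d) (h.nz' a a2).1 fun e => by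
    have := a.b; rw [e, c] at this; exact one_ne_zero this
  have b := h.tp a (h.le t' ht' hr) (h.cen ht' hr a1)
  have e1 := b_fix (h.fix ht' hr) t
  have e2 := b.b
  have e3 := a.b
  rw [e] at b e2
  rw [polar_add_right, polar_comm] at e1
  rw [polar_add_right] at e2
  rcases zmod2_cases (β (r.1 t) t) with f | f
  · have := g1 b ht f (by grind)
    rw [polar_add_left, polar_comm] at this; grind
  · have := g2 (h.addp b) (h.addp a) f (by simp only [polar_add_left, polar_comm q u t]; grind)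
      (by rw [polar_comm, polar_add_right]; grind)
    simp only [polar_add_left, polar_add_right, b_self, polar_comm q u (r.1 t), polar_comm q t (r.1 t)] at this
    grind

theorem not_an (ht : t ∈ T) {a b : VV m} (ha : a ∈ Y) (hb : b ∈ Y) (a0 : a ≠ 0) (b0 : b ≠ 0) (hab : β a b = 1)
    (hq : ∀ y ∈ Y, y ≠ 0 → q y = 1) (hY : ∀ y ∈ Y, y ≠ 0 → β a y = 1 ∨ β b y = 1) : False := by
  have ab : a + b ≠ 0 := fun e => by rw [add_eq_zero_zmod2.1 e, b_self] at hab; exact zero_ne_one hab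
  have g0 : ∀ {p p' y u y' w}, Φ p y u → Φ p' y' w → β p p' = 0 → p ≠ p' → β p w = 0 → y' ≠ 0 →
      β u p' = 0 ∧ β u w = 0 := fun {p p' y u y' w} x z c d e f => by
    have := (h.qu z).trans (hq _ z.hy f)
    refine h.f1 x z c d e f ?_ ?_ <;> rintro rfl
    · rw [h.qp x.hp] at this; exact zero_ne_one this
    · rw [q_add, h.qp x.hp, h.qp z.hp, c] at this; exact zero_ne_one this
  have g1 : ∀ {p p' y u}, Φ p y u → p' ∈ T → β p p' = 0 → p ≠ p' → β u p' = 0 :=
    fun {p p' y u} x hp c d => by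
    obtain ⟨v, -, hv⟩ := h.np p' hp
    obtain ⟨w₁, b1, -⟩ := h.ex hp ha hv
    obtain ⟨w₂, b2, -⟩ := h.ex hp hb hv
    have c1 := g0 x b1 c d; have c2 := g0 x b2 c d; have c3 := g0 x (h.add b1 b2) c d
    rw [polar_add_right] at c3
    rcases zmod2_cases (β p w₁) with e | e
    · exact (c1 e a0).1
    rcases zmod2_cases (β p w₂) with e' | e'
    exacts [(c2 e' b0).1, (c3 (by rw [e, e']; rfl) ab).1]
  obtain ⟨t', ht', c⟩ := h.np t ht
  have c' := (polar_comm q t' t).trans c
  obtain ⟨a₁, x1, d1⟩ := h.ex ht ha c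
  obtain ⟨b₁, x2, d2⟩ := h.ex ht hb c
  obtain ⟨a₂, z1, e1⟩ := h.ex ht' ha c'
  obtain ⟨b₂, z2, e2⟩ := h.ex ht' hb c'
  have k : ∀ {y u}, Φ t y u → β u t' = 0 → β a y = 1 → a₂ + a₁ = u := fun {y u} x d f => by
    have y0 : y ≠ 0 := fun e => by simp [e] at f
    obtain ⟨y₂, w, z, y1, e, g⟩ : ∃ y₂ w, Φ t' y₂ w ∧ y₂ ≠ 0 ∧ β w t = 0 ∧ β w u = 0 := by
      by_contra! hc
      have o1 := zmod2_ne_zero.1 (hc _ _ z1 a0 e1); have o2 := zmod2_ne_zero.1 (hc _ _ z2 b0 e2)
      have := hc _ _ (h.add z1 z2) ab (by rw [polar_add_left, e1, e2, add_zero])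
      rw [polar_add_left, o1, o2] at this; exact this rfl
    have m1 := h.mv x c d
    have m2 := h.mv z c' e
    rw [hq _ x.hy y0, one_smul] at m1
    rw [hq _ z.hy y1, one_smul] at m2
    have n1 : ∀ {y' u'}, Φ t' y' u' → β u' t = 0 → Φ (t' + u + t) y' (u' + β u' u • t) :=
      fun z' e' => by rw [← m1, ← h.mv' x e']; exact h.tp' z' x
    have n2 : ∀ {y' u'}, Φ t y' u' → β u' t' = 0 → Φ (t + w + t') y' (u' + β u' w • t') :=
      fun x' d' => by rw [← m2, ← h.mv' z d']; exact h.tp' x' z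
    have s1 := x.b; have s2 := z.b; have s3 := x1.b; have s4 := z1.b
    by_cases hp : t' + u + t = t + w + t'
    · obtain rfl : u = w := by grind
      have o := h.un (n1 z1 e1) (hp ▸ n2 x1 d1)
      rw [(h.bb x1 x).trans f, one_smul] at o
      have s5 := polar_comm q t a₂; have s6 := polar_comm q t' a₁; have s7 := polar_comm q t' u
      rcases zmod2_cases (β a₂ u) with e | e <;> simp only [e, zero_smul, one_smul, add_zero] at o <;>
        rcases o with o | o <;> have o2 := congrArg (β t) o <;> have o3 := congrArg (β t') o <;>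
        simp only [polar_add_right, b_self] at o2 o3 <;> grind
    exfalso
    have pp : β (t' + u + t) (t + w + t') = 0 := by
      simp only [polar_add_left, polar_add_right, b_self, polar_comm q u t, polar_comm q t w,
        polar_comm q u w]; grind
    obtain ⟨y', u', z', e', f'⟩ : ∃ y' u', Φ t' y' u' ∧ β u' t = 0 ∧ β y' y₂ = 1 := by
      rcases hY _ z.hy y1 with o | o
      exacts [⟨_, _, z1, e1, o⟩, ⟨_, _, z2, e2, o⟩]
    have i1 := g1 (n1 z' e') (n2 x d).hp pp hp
    have i2 : ∀ {y'' u''}, Φ t y'' u'' → β u'' t' = 0 → β y'' y = 1 → β u' u'' = 1 :=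
      fun {y'' u''} x' d' f'' => by
      have j1 := g1 (n2 x' d') (n1 z' e').hp (polar_comm q _ _ ▸ pp) (Ne.symm hp)
      have j2 := (g0 (n1 z' e') (n2 x' d') pp hp (polar_comm q _ _ ▸ j1) fun e => by simp [e] at f'').2
      have j3 := h.bb x' x; have j4 := h.bb z' z; have j5 := x'.b; have j6 := z'.b
      simp only [polar_add_left, polar_add_right, polar_smul_left, polar_smul_right, b_self, smul_eq_mul,
        polar_comm q u'' t, polar_comm q u' t', polar_comm q t' u, polar_comm q t w] at i1 j1 j2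
      grind
    have j1 := i2 x1 d1 f
    have j2 := i2 (h.add x1 x) (by rw [polar_add_left, d1, d, add_zero])
      (by rw [polar_add_left, f, b_self, add_zero])
    have j4 := h.bb z' z; have j6 := z'.b
    simp only [polar_add_left, polar_add_right, polar_smul_left, b_self, polar_comm q u' t', smul_eq_mul,
      polar_comm q t w] at i1 j2
    grind
  have := k x2 d2 hab
  have := k (h.add x1 x2) (by rw [polar_add_left, d1, d2, add_zero])
    (by rw [polar_add_right, hab, b_self, zero_add])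
  have := (h.nz' x1 a0).1
  grind

theorem not_nd (ht : t ∈ T) (hd : 3 ≤ dim Y) (hn : ∀ y ∈ Y, (∀ y' ∈ Y, β y' y = 0) → y = 0) : False := by
  obtain ⟨y, hy, y0, qy⟩ := exists_sing hd
  obtain ⟨t', ht', c⟩ := h.np t ht
  have c' := (polar_comm q t' t).trans c
  obtain ⟨u, a, d⟩ := h.ex ht hy c
  have H : ∀ {y₃ u'}, Φ t' y₃ u' → β u' t = 0 → β u' u = 0 → y₃ ≠ 0 → u' = u := fun {y₃ u'} b e f g => by
    by_contra hc
    refine g (hn _ b.hy fun y₄ h4 => ?_)
    obtain ⟨w, b', e'⟩ := h.ex ht' h4 c'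
    have x := h.tp' b' a
    rw [h.mv a c d, h.mv' a e', qy, zero_smul, add_zero] at x
    have s1 := (h.nz' a y0).1; have s2 := a.b; have s3 := b.b
    have := (h.f1 x b (by rw [polar_add_left, b_self, d, add_zero]) (by grind)
      (by rw [polar_add_left, s3, polar_comm, f, add_zero]) g (fun o => by
        rw [o, polar_add_left, c', polar_comm, s2] at e; exact one_ne_zero e) (by grind)).2
    rwa [polar_add_left, polar_smul_left, polar_comm q t, e, smul_zero, add_zero, h.bb b' b] at this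
  have k : ∀ y₁ ∈ Y, ∀ y₂ ∈ Y, y₁ ≠ 0 → y₂ ≠ 0 → y₁ + y₂ ≠ 0 →
      ∃ y, (y = y₁ ∨ y = y₂ ∨ y = y₁ + y₂) ∧ Φ t' y u := fun y₁ h1 y₂ h2 n1 n2 n3 => by
    obtain ⟨w₁, b1, e1⟩ := h.ex ht' h1 c'
    obtain ⟨w₂, b2, e2⟩ := h.ex ht' h2 c'
    rcases zmod2_cases (β w₁ u) with e | e
    · exact ⟨_, .inl rfl, H b1 e1 e n1 ▸ b1⟩
    rcases zmod2_cases (β w₂ u) with e' | e'
    · exact ⟨_, .inr (.inl rfl), H b2 e2 e' n2 ▸ b2⟩
    exact ⟨_, .inr (.inr rfl), H (h.add b1 b2) (by rw [polar_add_left, e1, e2, add_zero])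
      (by rw [polar_add_left, e, e']; rfl) n3 ▸ h.add b1 b2⟩
  have k' : ∀ y₀ : VV m, ∃ y, y ≠ y₀ ∧ Φ t' y u := fun y₀ => by
    obtain ⟨y₁, a1, h1⟩ := exists_not_mem hd [0, y₀] (by simp)
    obtain ⟨y₂, a2, h2⟩ := exists_not_mem hd [0, y₀, y₁, y₀ + y₁] (by simp)
    simp only [List.mem_cons, List.not_mem_nil, or_false, not_or] at h1 h2
    obtain ⟨y, o, b⟩ := k y₁ a1 y₂ a2 h1.1 h2.1 (by grind)
    exact ⟨y, by grind, b⟩
  obtain ⟨y₁, -, b1⟩ := k' 0
  obtain ⟨y₂, n, b2⟩ := k' y₁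
  exact n (add_eq_zero_zmod2.1 (h.nz (h.add b2 b1) (by rw [add_self_zmod2]; exact zero_mem _)))

theorem false (ht : t ∈ T) (h0 : Y ≠ ⊥) : False := by
  by_cases hi : Y ⊓ pp q Y = ⊥
  swap
  · obtain ⟨S, s1, s2, s3, s4⟩ := h.exists_ts (h.iv.inf h.iv.pp)
      (fun v hv => mem_pp.2 fun w hw => mem_pp.1 hv.2 w hw.1) hi
    exact LB.not_ts (Y := S) { h.toLT with iv := s2, perp := fun p a y b => h.perp p a y (s1 b).1, np := h.np }
      ht s3 s4
  have hn : ∀ y ∈ Y, (∀ y' ∈ Y, β y' y = 0) → y = 0 := fun y a b =>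
    (Submodule.eq_bot_iff _).1 hi y ⟨a, mem_pp.2 b⟩
  by_cases hd : 3 ≤ dim Y
  · exact h.not_nd ht hd hn
  obtain ⟨a, a1, a2⟩ := (Submodule.ne_bot_iff Y).1 h0
  obtain ⟨b, a3, a4, a5⟩ := h.exists_two h.iv a1 a2
  have hY : ∀ y ∈ Y, y = 0 ∨ y = a ∨ y = b ∨ y = a + b := fun y hy => by
    by_contra! hc
    have := le_card_of (S := Y) [0, a, b, a + b, y] (by simp; grind) (by simp [a1, a3, hy, add_mem])
    have := Nat.pow_le_pow_right (n := 2) two_pos (show dim Y ≤ 2 by omega)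
    simp at *; omega
  have hab : β a b = 1 := zmod2_ne_zero.1 fun e => a2 (hn a a1 fun y hy => by
    have := polar_comm q b a
    rcases hY y hy with f | f | f | f <;> simp only [f, polar_add_left, b_self, polar_zero_left] <;> grind)
  have hq : q (a + b) = _ := q_add ..
  have k : ∀ v ∈ Y, q v = 1 → (∀ w ∈ Y, q w = 1 → w = v) → False := fun v hv e f => by
    rw [h.nofix v fun g hg => f _ (h.iv g hg v hv) ((O_map g v).trans e), map_zero] at e
    exact zero_ne_one e
  have z : q 0 = 0 := map_zero q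
  rcases zmod2_cases (q a) with e | e <;> rcases zmod2_cases (q b) with e' | e'
  · exact k _ (add_mem a1 a3) (by grind) fun w hw f => by rcases hY w hw with rfl | rfl | rfl | rfl <;> grind
  · exact k _ a3 e' fun w hw f => by rcases hY w hw with rfl | rfl | rfl | rfl <;> grind
  · exact k _ a1 e fun w hw f => by rcases hY w hw with rfl | rfl | rfl | rfl <;> grind
  · have := polar_comm q b a
    refine h.not_an ht a1 a3 a2 a4 hab (fun y hy n => ?_) fun y hy n => ?_
    · rcases hY y hy with rfl | rfl | rfl | rfl <;> grind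
    · rcases hY y hy with f | f | f | f <;> simp only [f, polar_add_right, b_self] <;> grind

end LB

/-- if `K` is reducible, then the vectors of `T` are mutually perpendicular -/
theorem LT.ts (h : LT q K T E R) (hm : 5 ≤ m) (ht : t ∈ T) {W : SS m} (hW : Iv K W) (h0 : W ≠ ⊥)
    (h1 : W ≠ ⊤) : ∀ v ∈ Submodule.span (ZMod 2) T, β t v = 0 := by
  by_contra hn
  obtain ⟨Y, a, b, c⟩ := h.exists_perp hm ht hW h0 h1
  exact LB.false { h with iv := a, perp := c, np := fun _ => h.exists_T ht hn } ht b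

end CfsgLib.LXR
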