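import Cfsg.Agent.Lib.LXR.LinB

/-! The case that `T` spans a totally singular subspace -/

set_option autoImplicit false

namespace CfsgLib.LXR

open QuadraticMap Module CfsgLib.ExtraTwo CfsgLib.OrthE CfsgLib.Small9

variable {m : ℕ} {q : QuadraticForm (ZMod 2) (VV m)} [NeZero m] {K : Subgroup (O q)} {T : Set (VV m)}
  {E : VV m → SS m} {R : VV m → Subgroup (O q)} {t v w s s₀ x : VV m} {S : SS m} {r : O q}

local notation "β" => polar q
local notation "dim" => finrank (ZMod 2)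

structure LC (q : QuadraticForm (ZMod 2) (VV m)) (K : Subgroup (O q)) (T : Set (VV m))
    (E : VV m → SS m) (R : VV m → Subgroup (O q)) (S : SS m) : Prop extends LT q K T E R where
  sp : S = Submodule.span (ZMod 2) T
  iso : ∀ s ∈ S, ∀ s' ∈ S, polar q s s' = 0

omit [NeZero m] in
theorem LT.lc (h : LT q K T E R) (ht : t ∈ T) (e : ∀ v ∈ Submodule.span (ZMod 2) T, β t v = 0) :
    LC q K T E R (Submodule.span (ZMod 2) T) :=
  { h with
    sp := rfl
    iso := fun _ a s b => (Submodule.span_le.2 fun _ hp =>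
      (polar_comm q _ _).trans (h.perp_all h.iv_span ht e hp s b) : _ ≤ pv q s) a ▸ polar_comm q _ _ }

namespace LC
variable (h : LC q K T E R S)
include h

omit [NeZero m] in
theorem iv : Iv K S := h.sp ▸ h.iv_span

omit [NeZero m] in
theorem mem (ht : t ∈ T) : t ∈ S := h.sp ▸ Submodule.subset_span ht

omit [NeZero m] in
theorem a1 (ht : t ∈ T) (hr : r ∈ R t) (e : ∀ s ∈ S, r.1 s = s) : r = 1 :=
  (h.fx_o2 h.iv (N := R t ⊓ fx K S) inf_le_right (fun g hg x hx =>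
    ⟨hg.2 t (h.mem ht) ▸ h.eqR g hg.1 t ht x hx.1, (fx K S).mul_mem (mul_mem hg hx.2) (inv_mem hg)⟩)
    (fun x => ⟨1, Subtype.ext (by simpa [pow_two] using h.sq t ht _ x.2.1)⟩)).le ⟨hr, h.le t ht hr, e⟩

theorem b1 (ht : t ∈ T) (hr : r ∈ R t) (hv : β t v = 1) (hs : s₀ ∈ S) (e : r.1 v + v + s₀ ∈ E t)
    (hx : β t x = 0) : r.1 x + x ∈ S := by
  obtain ⟨r', hr', e'⟩ := h.surj t ht v x hv hx
  have e1 := h.movE ht hr fun _ => h.bE ht e'
  have e2 := h.movE ht hr' fun _ => h.bE ht e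
  have e3 := h.iv.mov (h.le t ht hr') hs
  have e4 := add_mem e3 (h.mem ht)
  simp only [map_add, h.comm ht hr hr'] at e1 e2
  rcases e1 with e1 | e1 <;> rcases e2 with e2 | e2
  exacts [by convert e3 using 1; grind, by convert e4 using 1; grind, by convert e4 using 1; grind,
    by convert e3 using 1; grind]

omit [NeZero m] in
theorem b0 (ht : t ∈ T) (hr : r ∈ R t) (hv : β t v = 1) (e : r.1 s + s = 0 ∨ r.1 s + s = t) :
    r.1 s + s = β s (r.1 v + v) • t := by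
  rw [← b_adj (h.sq t ht r hr)]
  rcases e with e | e <;> simp [e, hv]

theorem b2 (ht : t ∈ T) (hr : r ∈ R t) (hv : β t v = 1) (hs : s₀ ∈ S) (e : r.1 v + v + s₀ ∈ E t)
    (hx : s ∈ S) : r.1 s + s = β s (r.1 v + v) • t :=
  h.b0 ht hr hv (eq_of_perp h.nd fun x hx' => by
    rw [b_adj (h.sq t ht r hr)]; exact h.iso _ hx _ (h.b1 ht hr hv hs e hx'))

theorem key (ht : t ∈ T) (hv : β t v = 1) (hw : ∀ f ∈ S, f ∈ E t → β f w = 0) :
    ∃ r ∈ R t, (∃ s₀ ∈ S, r.1 v + v + s₀ ∈ E t) ∧ ∀ s ∈ S, r.1 s + s = β s w • t := by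
  have z : (1 : O q).1 v + v = 0 := add_self_zmod2 v
  have z1 : ∃ s₀ ∈ S, (1 : O q).1 v + v + s₀ ∈ E t := ⟨0, zero_mem _, by rw [z, add_zero]; exact zero_mem _⟩
  let W : SS m :=
    { carrier := {x | ∃ r ∈ R t, (∃ s₀ ∈ S, r.1 v + v + s₀ ∈ E t) ∧ x + (r.1 v + v) ∈ S ⊓ E t}
      add_mem' := by
        rintro a b ⟨r, hr, ⟨s, hs, e⟩, f⟩ ⟨r', hr', ⟨s', hs', e'⟩, f'⟩
        have y := b_fix (h.fix ht hr') v
        have y1 : _ ∈ S ⊓ E t := ⟨h.b1 ht hr hv hs e y, h.mov t ht r hr _ y⟩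
        rw [map_add] at y1
        refine ⟨r * r', mul_mem hr hr', ⟨s + s', add_mem hs hs', ?_⟩, ?_⟩ <;> rw [O_mul_apply]
        · convert add_mem (add_mem e e') y1.2 using 1; grind
        · convert add_mem (add_mem f f') y1 using 1; grind
      zero_mem' := ⟨1, one_mem _, z1, by rw [z, add_zero]; exact zero_mem _⟩
      smul_mem' := fun c x hx => by
        rcases zmod2_cases c with rfl | rfl
        · exact ⟨1, one_mem _, z1, by rw [z, add_zero, zero_smul]; exact zero_mem _⟩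
        · rwa [one_smul] }
  have i1 : S ⊔ E t ≤ W ⊔ E t := sup_le (fun s hs => by
    obtain ⟨r, hr, e⟩ := h.surj t ht v s hv (h.iso _ (h.mem ht) s hs)
    exact Submodule.mem_sup.2 ⟨r.1 v + v, ⟨r, hr, ⟨s, hs, e⟩, by rw [add_self_zmod2]; exact zero_mem _⟩, _, e,
      by grind⟩) le_sup_right
  have i2 : W ⊓ pp q S ≤ S ⊓ E t := by
    rintro x ⟨⟨r, hr, ⟨s, hs, e⟩, f⟩, hx⟩
    obtain rfl := h.a1 ht hr fun s' hs' => add_eq_zero_zmod2.1 (by
      have := h.iso _ hs' _ f.1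
      rw [polar_add_right, hx s' hs', zero_add] at this
      rw [h.b2 ht hr hv hs e hs', this, zero_smul])
    rwa [z, add_zero] at f
  have i3 : S ⊓ E t ≤ W ⊓ E t := fun x hx => ⟨⟨1, one_mem _, z1, by rwa [z, add_zero]⟩, hx.2⟩
  have i4 : W ⊔ pp q S ≤ pp q (S ⊓ E t) := sup_le (by
    rintro x ⟨r, hr, ⟨s, hs, e⟩, f⟩ y hy
    have a := h.iso _ hy.1 _ f.1; have b := h.bE ht hy.2 e; have c := h.iso _ hy.1 _ hs
    simp only [polar_add_right] at a b; grind) (pp_anti inf_le_left)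
  have j1 := Submodule.finrank_mono i1; have j2 := Submodule.finrank_mono i2
  have j3 := Submodule.finrank_mono i3
  have j4 := Submodule.finrank_sup_add_finrank_inf_eq W (E t)
  have j5 := Submodule.finrank_sup_add_finrank_inf_eq S (E t)
  have j6 := Submodule.finrank_sup_add_finrank_inf_eq W (pp q S)
  have j7 := dim_pp h.nd S; have j8 := dim_pp h.nd (S ⊓ E t)
  obtain ⟨x, ⟨r, hr, ⟨s, hs, e⟩, f⟩, y, hy, rfl⟩ := Submodule.mem_sup.1
    ((Submodule.eq_of_le_of_finrank_le i4 (by omega)).ge (fun f hf => hw f hf.1 hf.2 : w ∈ pp q (S ⊓ E t)))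
  refine ⟨r, hr, ⟨s, hs, e⟩, fun s' hs' => ?_⟩
  have a := h.iso _ hs' _ f.1
  rw [polar_add_right] at a
  rw [h.b2 ht hr hv hs e hs', polar_add_right q s' x, hy s' hs', add_zero, add_eq_zero_zmod2.1 a]

theorem key' (ht : t ∈ T) (hv : β t v = 1) (hs : s ∈ S) (hx : s ∉ E t) :
    ∃ r ∈ R t, (∃ s₀ ∈ S, r.1 v + v + s₀ ∈ E t) ∧ r.1 s = s + t := by
  obtain ⟨w, w1, w2⟩ := exists_sep h.nd (S := S ⊓ E t) fun c => hx c.2
  obtain ⟨r, hr, a, b⟩ := h.key ht hv fun f a b => w1 f ⟨a, b⟩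
  have := b s hs
  rw [w2, one_smul] at this
  exact ⟨r, hr, a, by grind⟩

theorem a2 (hs : s ∈ S) : s = 0 ∨ s ∈ T := by
  have hs' := h.sp ▸ hs
  induction hs' using Submodule.span_induction with
  | mem x hx => exact .inr hx
  | zero => exact .inl rfl
  | smul c x a b => rcases zmod2_cases c with rfl | rfl <;> simp [b (h.sp ▸ a)]
  | add x y a b c d =>
    rcases c (h.sp ▸ a) with rfl | c
    · simpa using d (h.sp ▸ b)
    rcases d (h.sp ▸ b) with rfl | d
    · simp [c]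
    by_cases e : x = y
    · exact .inl (by grind)
    by_cases f : x ∈ E y
    · obtain ⟨r, hr, e⟩ := h.exists_mov d (fun _ => h.bE d f) (h.ne x c) e
      exact .inr (e ▸ h.inv r (h.le y d hr) x c)
    · obtain ⟨v, hv⟩ := exists_b h.nd (h.ne y d)
      obtain ⟨r, hr, -, e⟩ := h.key' d hv (h.mem c) f
      exact .inr (e ▸ h.inv r (h.le y d hr) x c)

theorem a4 (ht : t ∈ T) (hS : S ≤ E t) : E t = S ∧ pp q S = S := by
  obtain ⟨v, hv⟩ := exists_b h.nd (h.ne t ht)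
  have i1 : pp q S ≤ E t := fun x hx => by
    obtain ⟨r, hr, e⟩ := h.surj t ht v x hv (hx t (h.mem ht))
    obtain rfl := h.a1 ht hr fun s hs => add_eq_zero_zmod2.1 (by
      have := h.bE ht (hS hs) e
      rw [polar_add_right, hx s hs, add_zero] at this
      rw [h.b0 ht hr hv (h.movE ht hr fun _ => h.bE ht (hS hs)), this, zero_smul])
    rwa [show (1 : O q).1 v + v = 0 from add_self_zmod2 v, zero_add] at e
  have i2 : E t ≤ S := fun x hx => (pp_pp h.nd S).le fun y hy => h.bE ht (i1 hy) hx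
  exact ⟨le_antisymm i2 hS, le_antisymm (i1.trans i2) fun x hx y hy => h.iso y hy x hx⟩

theorem a5 (hm : 8 ≤ m) (ht : t ∈ T) (hF : ∀ f ∈ S, f ∈ E t → f = 0 ∨ f = t) : S ≤ E t := fun t₂ h2 => by
  by_contra hn
  obtain ⟨v, hv⟩ := exists_b h.nd (h.ne t ht)
  have mS := h.mem ht
  have m1 : ∀ r ∈ R t, ∀ s ∈ S, r.1 s + s = β s (r.1 v + v) • t := fun r hr s hs =>
    h.b0 ht hr hv (hF _ (h.iv.mov (h.le t ht hr) hs) (h.mov t ht r hr s (h.iso _ mS _ hs)))
  have i1 : ⊤ ⊓ pv q t ≤ S ⊔ E t := fun x hx => by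
    obtain ⟨r, hr, e⟩ := h.surj t ht v x hv hx.2
    obtain ⟨r', hr', ⟨s, hs, e'⟩, f⟩ := h.key ht hv (w := r.1 v + v) fun f a b => by
      rcases hF f a b with rfl | rfl
      exacts [polar_zero_left .., b_fix (h.fix ht hr) v]
    have := h.a1 ht (mul_mem hr hr') fun s hs => by
      rw [O_mul_apply, show r'.1 s = r.1 s from add_right_cancel ((f s hs).trans (m1 r hr s hs).symm),
        h.inv2 ht hr]
    obtain rfl : r = r' := by
      rw [← inv_eq_of_mul_eq_one_right this, inv_eq_of_mul_eq_one_right (h.sq t ht r hr)]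
    exact Submodule.mem_sup.2 ⟨s, hs, _, add_mem e e', by grind⟩
  have j1 := Submodule.finrank_mono i1
  have j2 := dim_inf_pv (q := q) ⊤ t
  have j3 := Submodule.finrank_sup_add_finrank_inf_eq S (E t)
  have j4 := h.dimE ht
  have j5 : dim (S ⊓ E t : SS m) ≠ 0 := fun e =>
    h.ne t ht ((Submodule.finrank_eq_zero.1 e).le (⟨mS, h.tE t ht⟩ : t ∈ S ⊓ E t))
  rw [finrank_top, finrank_fintype_fun_eq_card, Fintype.card_fin] at j2
  obtain ⟨ρ, hρ, e⟩ := h.surj t ht v t₂ hv (h.iso _ mS _ h2)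
  obtain ⟨p, hp, n⟩ : ∃ p ∈ S, ρ.1 p ≠ p := by
    by_contra! c
    rw [h.a1 ht hρ c, show (1 : O q).1 v + v = 0 from add_self_zmod2 v, zero_add] at e
    exact hn e
  have n1 : ρ.1 p + p = t :=
    (hF _ (h.iv.mov (h.le t ht hρ) hp) (h.mov t ht ρ hρ p (h.iso _ mS _ hp))).resolve_left (by grind)
  have pT := (h.a2 hp).resolve_left fun e => n (by simp [e])
  obtain ⟨x, hx, n2⟩ := exists_not_mem (S := S) (k := 4) (by omega)
    [0, t, t₂, t + t₂, p, p + t, p + t₂, p + t + t₂] (by simp)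
  obtain ⟨w, w1, w2⟩ := exists_sep h.nd (x := x) (S := ((⊥ ⊔ Submodule.span (ZMod 2) {t}) ⊔
      Submodule.span (ZMod 2) {t₂}) ⊔ Submodule.span (ZMod 2) {p}) (by
    simp only [mem_sup1, Submodule.mem_bot]
    simp only [List.mem_cons, List.not_mem_nil, or_false, not_or] at n2
    grind)
  simp only [mem_sup1, Submodule.mem_bot] at w1
  obtain ⟨k, hk, rfl⟩ := h.tr t ht p pT
  obtain ⟨g, hg, -, f⟩ := h.key pT ((O_polar k t v).trans hv) (w := w) fun f a b => by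
    have := h.eqE _ (inv_mem hk) _ pT f b
    rw [O_inv_apply_apply] at this
    rcases hF _ (h.iv _ (inv_mem hk) f a) this with c | c <;> rw [← O_apply_inv_apply k f, c]
    exacts [by simp, w1 _ (by grind)]
  have gK := h.le _ pT hg
  have f1 := f t mS; have f2 := f t₂ h2; have f3 := f x hx
  rw [w1 _ (by grind), zero_smul, add_eq_zero_zmod2] at f1 f2
  rw [w2, one_smul] at f3
  have c1 := h.eqR g gK t ht ρ hρ
  have c2 := h.eqE g gK t ht _ e
  rw [f1] at c1 c2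
  have c3 := h.uniq ht c1 hρ hv (h.shift ht c1 (f1 ▸ (O_polar g t v).trans hv) hv (w := t₂) (by
    rwa [map_add, map_add, f2, ← O_inv_apply_apply g v, ← O_mul_apply, ← O_mul_apply, O_inv_apply_apply] at c2)) e
  have c4 := congrArg (fun y : O q => y.1 (g.1 x)) c3
  have c5 := congrArg g.1 (m1 ρ hρ x hx)
  have c6 := congrArg ρ.1 f3
  have c7 := m1 ρ hρ x hx
  have := h.ne t ht
  simp only [O_mul_apply, O_inv_apply_apply, map_add, map_smul, f1] at c4 c5 c6
  grind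

theorem a6 (ht : t ∈ T) (hs : s ∈ T) (n : s ∉ E t) (hx : x ∈ S) (e : x ∈ E t) : x ∈ E s ∨ x + t ∈ E s := by
  by_contra! c
  obtain ⟨v, hv⟩ := exists_b h.nd (h.ne s hs)
  obtain ⟨w, w1, w2⟩ := exists_sep h.nd (x := x) (S := S ⊓ E s ⊔ Submodule.span (ZMod 2) {t})
    fun k => (mem_sup1.1 k).elim (fun k => c.1 k.2) fun k => c.2 k.2
  obtain ⟨g, hg, -, f⟩ := h.key hs hv (w := w) fun f a b => w1 f (mem_sup1.2 (.inl ⟨a, b⟩))
  have f1 := f t (h.mem ht); have f2 := f x hx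
  rw [w1 _ (mem_sup1.2 (.inr (by rw [add_self_zmod2]; exact zero_mem _))), zero_smul, add_eq_zero_zmod2] at f1
  have := h.eqE g (h.le s hs hg) t ht x e
  rw [w2, one_smul] at f2
  exact n (f2 ▸ add_mem (f1 ▸ this) e)

end LC

end CfsgLib.LXR
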